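import Cfsg.Agent.Lib.Qd.NatMod

/-! Natural modules: from the hypothesis to the set-up. -/

set_option autoImplicit false
set_option linter.style.haveILetI false
set_option linter.unusedSectionVars false
set_option linter.unusedSimpArgs false
set_option linter.unusedVariables false

namespace CfsgLib.NatMod

open Matrix Subgroup

theorem charP_of_card {F : Type*} [Field F] [Fintype F] {p : ℕ} [hp : Fact p.Prime] {n : ℕ}
    (hF : Fintype.card F = p ^ n) : CharP F p := by
  obtain ⟨r, hr⟩ := CharP.exists F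
  haveI := hr
  have hrp : r.Prime := CharP.char_is_prime F r
  obtain ⟨k, -, hk⟩ := FiniteField.card F r
  have hn : n ≠ 0 := by
    rintro rfl
    have := Fintype.one_lt_card (α := F)
    rw [hF, pow_zero] at this
    exact lt_irrefl _ this
  have h1 : r ∣ p ^ n := by
    rw [← hF, hk]
    exact dvd_pow_self r k.ne_zero
  have h2 : r = p := (Nat.prime_dvd_prime_iff_eq hrp hp.out).1 (hrp.dvd_of_dvd_pow h1)
  rw [← h2]
  exact hr

theorem exists_data {G : Type*} [Group G] [Finite G] {p : ℕ} [hp : Fact p.Prime] {F : Type*} [Field F] [Fintype F]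
    (n : ℕ) (hF : Fintype.card F = p ^ n) (V L : Subgroup G) (hnat : Cfsg.IsNaturalSL2Module F V L)
    (hf : L ⊓ Subgroup.centralizer (V : Set G) = ⊥) (S : Sylow p ↥L) (T : Subgroup G)
    (hT : T = ((S : Subgroup ↥L).map L.subtype)) :
    ∃ (ρ : ↥L →* SpecialLinearGroup (Fin 2) F) (ψ : Additive ↥V ≃+ (Fin 2 → F)) (v₀ : Fin 2 → F),
      Data V L T ρ ψ v₀ := by
  obtain ⟨hLN, ρ, ψ, hsurj, hker, hact⟩ := hnat
  haveI : CharP F p := charP_of_card hF
  have hinj : Function.Injective ρ := by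
    rw [injective_iff_map_eq_one]
    intro l hl
    have h1 : l ∈ ρ.ker := hl
    rw [hker, Subgroup.mem_subgroupOf] at h1
    have h2 : (l : G) ∈ L ⊓ Subgroup.centralizer (V : Set G) := ⟨l.2, h1⟩
    rw [hf, Subgroup.mem_bot] at h2
    exact Subtype.ext h2
  let Q : Sylow p (SpecialLinearGroup (Fin 2) F) := S.mapSurjective hsurj
  obtain ⟨v₀, hv₀, hQ⟩ := CfsgLib.ClassGeo.sl2_sylow_eq_stab p Q
  have hQ' : (S : Subgroup ↥L).map ρ = MulAction.stabilizer (SpecialLinearGroup (Fin 2) F) v₀ := by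
    rw [← hQ]
    exact (Sylow.coe_mapSurjective hsurj S).symm
  refine ⟨ρ, ψ, v₀, ?_, hinj, hsurj, hv₀, ?_, ?_, ?_⟩
  · intro l v
    obtain ⟨w, h1, h2⟩ := hact l v
    exact ⟨w, h1, h2⟩
  · intro l hl
    rw [hT] at hl
    obtain ⟨l', hl', hll⟩ := hl
    have : l' = l := Subtype.ext hll
    subst this
    have h1 : ρ l' ∈ MulAction.stabilizer (SpecialLinearGroup (Fin 2) F) v₀ := by
      rw [← hQ']
      exact ⟨l', hl', rfl⟩
    exact h1
  · intro A hA
    have h1 : A ∈ (S : Subgroup ↥L).map ρ := by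
      rw [hQ']
      exact hA
    obtain ⟨l, hl, hlA⟩ := h1
    refine ⟨l, ?_, hlA⟩
    rw [hT]
    exact ⟨l, hl, rfl⟩
  · rw [hT]
    exact Subgroup.map_subtype_le _

end CfsgLib.NatMod
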