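import Cfsg.Agent.Lib.ClassGeo.GL2Sylow
import Cfsg.Prelude.Def_LocalEven

/-! The natural module for `SL₂(F)` inside a group. -/

set_option autoImplicit false
set_option linter.style.haveILetI false
set_option linter.unusedSectionVars false
set_option linter.unusedSimpArgs false
set_option linter.unusedVariables false

namespace CfsgLib.NatMod

open Matrix Subgroup

variable {F : Type*} [Field F]

local notation "SL2" => SpecialLinearGroup (Fin 2) F

/-- The symplectic form on `F²`. -/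
def dd (v w : Fin 2 → F) : F := v 0 * w 1 - v 1 * w 0

theorem smul_apply' (g : SL2) (v : Fin 2 → F) (i : Fin 2) :
    (g • v) i = (g : Matrix (Fin 2) (Fin 2) F) i 0 * v 0 + (g : Matrix (Fin 2) (Fin 2) F) i 1 * v 1 :=
  CfsgLib.ClassGeo.sl2_smul_apply g v i

theorem dd_smul (A : SL2) (v w : Fin 2 → F) : dd (A • v) (A • w) = dd v w := by
  have h := A.2
  rw [Matrix.det_fin_two] at h
  simp only [dd, smul_apply']
  linear_combination (v 0 * w 1 - v 1 * w 0) * h

theorem dd_self (v : Fin 2 → F) : dd v v = 0 := by simp [dd]; ring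

theorem dd_add_right (v w w' : Fin 2 → F) : dd v (w + w') = dd v w + dd v w' := by
  simp [dd]; ring

theorem dd_sub_right (v w w' : Fin 2 → F) : dd v (w - w') = dd v w - dd v w' := by
  simp [dd]; ring

theorem dd_smul_right (v w : Fin 2 → F) (c : F) : dd v (c • w) = c * dd v w := by
  simp [dd]; ring

theorem dd_smul_left (v w : Fin 2 → F) (c : F) : dd (c • v) w = c * dd v w := by
  simp [dd]; ring

theorem eq_smul_of_dd_eq_zero {v w : Fin 2 → F} (hv : v ≠ 0) (h : dd v w = 0) : ∃ c : F, w = c • v := by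
  have h0 : v 0 ≠ 0 ∨ v 1 ≠ 0 := by
    by_contra hc
    push Not at hc
    apply hv
    ext i
    fin_cases i
    · exact hc.1
    · exact hc.2
  have hd : v 0 * w 1 = v 1 * w 0 := sub_eq_zero.1 h
  rcases h0 with h0 | h0
  · refine ⟨w 0 / v 0, ?_⟩
    ext i
    fin_cases i
    · simp; field_simp
    · simp; field_simp; linear_combination hd
  · refine ⟨w 1 / v 1, ?_⟩
    ext i
    fin_cases i
    · simp; field_simp; linear_combination -hd
    · simp; field_simp

theorem exists_dd_ne {v : Fin 2 → F} (hv : v ≠ 0) : ∃ w : Fin 2 → F, dd v w ≠ 0 := by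
  by_contra hc
  push Not at hc
  apply hv
  have h1 := hc ![1, 0]
  have h2 := hc ![0, 1]
  simp [dd] at h1 h2
  ext i
  fin_cases i
  · exact h2
  · exact h1

/-- The transvection along `v`. -/
def trans (v : Fin 2 → F) (c : F) : SL2 :=
  ⟨!![1 - c * v 0 * v 1, c * v 0 * v 0; -c * v 1 * v 1, 1 + c * v 0 * v 1], by
    rw [Matrix.det_fin_two_of]; ring⟩

theorem trans_smul (v w : Fin 2 → F) (c : F) : trans v c • w = w + (c * dd v w) • v := by
  ext i
  rw [smul_apply']
  fin_cases i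
  · simp [trans, dd]; ring
  · simp [trans, dd]; ring

theorem trans_fix (v : Fin 2 → F) (c : F) : trans v c • v = v := by
  rw [trans_smul, dd_self]; simp

theorem cramer {v w : Fin 2 → F} (hd : dd v w ≠ 0) (x : Fin 2 → F) :
    x = (dd x w / dd v w) • v + (dd v x / dd v w) • w := by
  ext i
  simp only [Pi.add_apply, Pi.smul_apply, smul_eq_mul]
  rw [div_mul_eq_mul_div, div_mul_eq_mul_div, ← add_div, eq_div_iff hd]
  fin_cases i
  · simp only [dd]; simp; ring
  · simp only [dd]; simp; ring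

/-- Two independent fixed vectors: the identity. -/
theorem eq_one_of_fix {A : SL2} {v w : Fin 2 → F} (hd : dd v w ≠ 0) (h1 : A • v = v) (h2 : A • w = w) :
    A = 1 := by
  have hall : ∀ x : Fin 2 → F, A • x = x := by
    intro x
    have hx : x = (dd x w / dd v w) • v + (dd v x / dd v w) • w := by
      ext i
      simp only [Pi.add_apply, Pi.smul_apply, smul_eq_mul]
      rw [div_mul_eq_mul_div, div_mul_eq_mul_div, ← add_div, eq_div_iff hd]
      fin_cases i
      · simp only [dd]; simp; ring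
      · simp only [dd]; simp; ring
    rw [hx, smul_add, smul_comm A, smul_comm A, h1, h2]
  apply Subtype.ext
  ext i j
  have := congrFun (hall (Pi.single j 1)) i
  rw [smul_apply'] at this
  fin_cases i <;> fin_cases j <;> simpa using this

/-- A group element fixing `v` moves everything by a multiple of `v`. -/
theorem smul_sub_of_fix {A : SL2} {v : Fin 2 → F} (hv : v ≠ 0) (h : A • v = v) (w : Fin 2 → F) :
    ∃ c : F, A • w = w + c • v := by
  have h1 : dd v (A • w - w) = 0 := by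
    rw [dd_sub_right]
    have := dd_smul A v w
    rw [h] at this
    rw [this]
    ring
  obtain ⟨c, hc⟩ := eq_smul_of_dd_eq_zero hv h1
  refine ⟨c, ?_⟩
  rw [← hc]
  abel

/-- Every matrix sending `v ↦ a v`, `w ↦ w'`. -/
theorem exists_map {v w w' : Fin 2 → F} (hd : dd v w ≠ 0) (hd' : dd v w' ≠ 0) :
    ∃ (A : SL2) (a : F), a ≠ 0 ∧ A • v = a • v ∧ A • w = w' := by
  -- the matrix `P' P⁻¹`
  set a : F := dd v w / dd v w' with ha
  have ha0 : a ≠ 0 := div_ne_zero hd hd'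
  have hdw : dd v w = v 0 * w 1 - v 1 * w 0 := rfl
  have hdw' : dd v w' = v 0 * w' 1 - v 1 * w' 0 := rfl
  -- images of the standard basis expressed through `v` and `w`
  let d := dd v w
  let M : Matrix (Fin 2) (Fin 2) F :=
    !![(a * v 0 * w 1 - w' 0 * v 1) / d, (w' 0 * v 0 - a * v 0 * w 0) / d;
       (a * v 1 * w 1 - w' 1 * v 1) / d, (w' 1 * v 0 - a * v 1 * w 0) / d]
  have hdet : M.det = 1 := by
    rw [Matrix.det_fin_two_of]
    have hd0 : d ≠ 0 := hd
    have hd1 : d = v 0 * w 1 - v 1 * w 0 := rfl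
    have h3 : a * (v 0 * w' 1 - v 1 * w' 0) = d := by
      rw [← hdw', ha]; exact div_mul_cancel₀ _ hd'
    field_simp
    rw [hd1] at h3 ⊢
    linear_combination (v 0 * w 1 - v 1 * w 0) * h3
  let A : SL2 := ⟨M, hdet⟩
  have hd0 : d ≠ 0 := hd
  have hd1 : d = v 0 * w 1 - v 1 * w 0 := rfl
  refine ⟨A, a, ha0, ?_, ?_⟩
  · ext i
    rw [smul_apply']
    fin_cases i
    · change (a * v 0 * w 1 - w' 0 * v 1) / d * v 0 + (w' 0 * v 0 - a * v 0 * w 0) / d * v 1 = a * v 0
      field_simp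
      rw [hd1]; ring
    · change (a * v 1 * w 1 - w' 1 * v 1) / d * v 0 + (w' 1 * v 0 - a * v 1 * w 0) / d * v 1 = a * v 1
      field_simp
      rw [hd1]; ring
  · ext i
    rw [smul_apply']
    fin_cases i
    · change (a * v 0 * w 1 - w' 0 * v 1) / d * w 0 + (w' 0 * v 0 - a * v 0 * w 0) / d * w 1 = w' 0
      field_simp
      rw [hd1]; ring
    · change (a * v 1 * w 1 - w' 1 * v 1) / d * w 0 + (w' 1 * v 0 - a * v 1 * w 0) / d * w 1 = w' 1
      field_simp
      rw [hd1]; ring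


section Group

variable {G : Type*} [Group G] {V L T : Subgroup G} {ρ : ↥L →* SpecialLinearGroup (Fin 2) F} {ψ : Additive ↥V ≃+ (Fin 2 → F)} {v₀ : Fin 2 → F}

/-- The vector of an element of `V`. -/
def vc {V : Subgroup G} (ψ : Additive ↥V ≃+ (Fin 2 → F)) (v : V) : Fin 2 → F := ψ (Additive.ofMul v)

theorem vc_mul (a b : V) : vc ψ (a * b) = vc ψ a + vc ψ b := map_add ψ (Additive.ofMul a) (Additive.ofMul b)

theorem vc_inv (a : V) : vc ψ a⁻¹ = - vc ψ a := map_neg ψ (Additive.ofMul a)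

theorem vc_one : vc ψ (1 : V) = 0 := map_zero ψ

theorem vc_inj : Function.Injective (vc ψ) := fun _ _ h =>
  Additive.ofMul.injective (ψ.injective h)

theorem vc_surj (w : Fin 2 → F) : ∃ v : V, vc ψ v = w :=
  ⟨Additive.toMul (ψ.symm w), by simp [vc]⟩

/-- The set-up. -/
structure Data (V L T : Subgroup G) (ρ : ↥L →* SpecialLinearGroup (Fin 2) F) (ψ : Additive V ≃+ (Fin 2 → F)) (v₀ : Fin 2 → F) : Prop where
  act : ∀ (l : L) (v : V), ∃ w : V, (w : G) = (l : G) * (v : G) * (l : G)⁻¹ ∧ vc ψ w = (ρ l : SpecialLinearGroup (Fin 2) F) • vc ψ v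
  inj : Function.Injective ρ
  surj : Function.Surjective ρ
  hv : v₀ ≠ 0
  tfix : ∀ l : L, (l : G) ∈ T → (ρ l : SpecialLinearGroup (Fin 2) F) • v₀ = v₀
  tex : ∀ A : SpecialLinearGroup (Fin 2) F, A • v₀ = v₀ → ∃ l : L, (l : G) ∈ T ∧ ρ l = A
  tle : T ≤ L


theorem comm_iff (D : Data V L T ρ ψ v₀) (l : L) (v : V) : (l : G) * v = v * l ↔ (ρ l : SpecialLinearGroup (Fin 2) F) • vc ψ v = vc ψ v := by
  obtain ⟨w, hw, hw2⟩ := D.act l v
  constructor
  · intro h
    have : w = v := by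
      apply Subtype.ext
      rw [hw, h]
      group
    rw [← hw2, this]
  · intro h
    rw [h] at hw2
    have : w = v := vc_inj hw2
    rw [this] at hw
    have h3 := congrArg (· * (l : G)) hw
    simp only [inv_mul_cancel_right] at h3
    exact h3.symm

theorem comm_elem (D : Data V L T ρ ψ v₀) (v : V) (l : L) : ∃ x : V, (x : G) = (v : G) * (l : G) * (v : G)⁻¹ * (l : G)⁻¹ ∧ vc ψ x = vc ψ v - (ρ l : SpecialLinearGroup (Fin 2) F) • vc ψ v := by
  obtain ⟨w, hw, hw2⟩ := D.act l v⁻¹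
  refine ⟨v * w, ?_, ?_⟩
  · rw [Subgroup.coe_mul, hw, InvMemClass.coe_inv]
    group
  · rw [vc_mul, hw2, vc_inv, smul_neg, sub_eq_add_neg]

theorem mem_CT (D : Data V L T ρ ψ v₀) (v : V) : (v : G) ∈ centralizer (T : Set G) ↔ ∃ c : F, vc ψ v = c • v₀ := by
  constructor
  · intro h
    obtain ⟨t, ht, hte⟩ := D.tex (trans v₀ 1) (trans_fix v₀ 1)
    have h1 := (Subgroup.mem_centralizer_iff.1 h) _ ht
    rw [comm_iff D, hte, trans_smul] at h1
    have h2 : (1 * dd v₀ (vc ψ v)) • v₀ = 0 := by simpa using h1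
    have h3 : dd v₀ (vc ψ v) = 0 := by
      rcases smul_eq_zero.1 h2 with h4 | h4
      · simpa using h4
      · exact absurd h4 D.hv
    exact eq_smul_of_dd_eq_zero D.hv h3
  · rintro ⟨c, hc⟩
    rw [Subgroup.mem_centralizer_iff]
    intro t ht
    have h1 := D.tfix ⟨t, D.tle ht⟩ ht
    have h2 := (comm_iff D ⟨t, D.tle ht⟩ v).2 (by rw [hc, smul_comm, h1])
    exact h2

theorem mem_Cs (D : Data V L T ρ ψ v₀) (s : L) (hs : (s : G) ∈ T) (hs1 : s ≠ 1) (v : V) :
    (v : G) ∈ centralizer ({(s : G)} : Set G) ↔ ∃ c : F, vc ψ v = c • v₀ := by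
  constructor
  · intro h
    have h1 := (Subgroup.mem_centralizer_iff.1 h) _ rfl
    rw [comm_iff D] at h1
    by_contra hc
    have hd : dd v₀ (vc ψ v) ≠ 0 := fun h0 => hc (eq_smul_of_dd_eq_zero D.hv h0)
    have h2 : ρ s = 1 := eq_one_of_fix hd (D.tfix s hs) h1
    exact hs1 (D.inj (by rw [h2, map_one]))
  · rintro ⟨c, hc⟩
    rw [Subgroup.mem_centralizer_iff]
    rintro _ rfl
    have h1 := D.tfix s hs
    exact (comm_iff D s v).2 (by rw [hc, smul_comm, h1])

/-- Every commutator with a Sylow element is in the line. -/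
theorem comm_in_line (D : Data V L T ρ ψ v₀) (v : V) (l : L) (hl : (l : G) ∈ T) :
    ∃ x : V, (x : G) = (v : G) * (l : G) * (v : G)⁻¹ * (l : G)⁻¹ ∧ (x : G) ∈ centralizer (T : Set G) := by
  obtain ⟨x, hx, hx2⟩ := comm_elem D v l
  refine ⟨x, hx, (mem_CT D x).2 ?_⟩
  obtain ⟨c, hc⟩ := smul_sub_of_fix D.hv (D.tfix l hl) (vc ψ v)
  refine ⟨-c, ?_⟩
  rw [hx2, hc, neg_smul]
  abel

theorem comm_le (D : Data V L T ρ ψ v₀) : ⁅V, T⁆ ≤ V ⊓ centralizer (T : Set G) := by
  rw [Subgroup.commutator_le]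
  intro v hv t ht
  obtain ⟨x, hx, hx2⟩ := comm_in_line D ⟨v, hv⟩ ⟨t, D.tle ht⟩ ht
  rw [commutatorElement_def]
  rw [show v * t * v⁻¹ * t⁻¹ = (x : G) from hx.symm]
  exact ⟨x.2, hx2⟩

/-- Commutators of a vector off the line give the whole line. -/
theorem exists_comm (D : Data V L T ρ ψ v₀) (v c : V) (hv : (v : G) ∉ centralizer (T : Set G)) (hc : (c : G) ∈ centralizer (T : Set G)) :
    ∃ t ∈ T, (c : G) = v * t * (v : G)⁻¹ * t⁻¹ := by
  obtain ⟨μ, hμ⟩ := (mem_CT D c).1 hc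
  have hd : dd v₀ (vc ψ v) ≠ 0 := by
    intro h0
    exact hv ((mem_CT D v).2 (eq_smul_of_dd_eq_zero D.hv h0))
  set d := dd v₀ (vc ψ v) with hd'
  obtain ⟨t, ht, hte⟩ := D.tex (trans v₀ (-μ / d)) (trans_fix v₀ _)
  refine ⟨t, ht, ?_⟩
  obtain ⟨x, hx, hx2⟩ := comm_elem D v t
  rw [← hx]
  apply congrArg Subtype.val
  apply vc_inj (ψ := ψ)
  rw [hx2, hte, trans_smul, hμ, ← hd']
  have : -μ / d * d = -μ := div_mul_cancel₀ _ hd
  rw [this, neg_smul]
  abel

/-- A single nontrivial element of the Sylow subgroup. -/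
theorem exists_comm_s (D : Data V L T ρ ψ v₀) (s : L) (hs : (s : G) ∈ T) (hs1 : s ≠ 1) (c : V)
    (hc : (c : G) ∈ centralizer (T : Set G)) :
    ∃ v : V, (c : G) = v * s * (v : G)⁻¹ * (s : G)⁻¹ := by
  obtain ⟨μ, hμ⟩ := (mem_CT D c).1 hc
  obtain ⟨w, hw⟩ := exists_dd_ne D.hv
  obtain ⟨c₁, hc₁⟩ := smul_sub_of_fix D.hv (D.tfix s hs) w
  have hc₁0 : c₁ ≠ 0 := by
    rintro rfl
    rw [zero_smul, add_zero] at hc₁
    have h2 : ρ s = 1 := eq_one_of_fix hw (D.tfix s hs) hc₁
    exact hs1 (D.inj (by rw [h2, map_one]))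
  obtain ⟨v, hv⟩ := vc_surj (ψ := ψ) ((-μ / c₁) • w)
  refine ⟨v, ?_⟩
  obtain ⟨x, hx, hx2⟩ := comm_elem D v s
  rw [← hx]
  apply congrArg Subtype.val
  apply vc_inj (ψ := ψ)
  rw [hx2, hv, smul_comm, hc₁, hμ, smul_add, smul_smul]
  have : -μ / c₁ * c₁ = -μ := div_mul_cancel₀ _ hc₁0
  rw [this, neg_smul]
  abel

end Group

end CfsgLib.NatMod
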